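import Mathlib
import Cfsg.Agent.Lib.Helper36.Stu.Defs
import Cfsg.Agent.Lib.Helper3.CharValues

/-!
# STU (S2318), package [SPH]

The spherical function of a character whose restriction to `U` contains the trivial character
exactly once satisfies the functional equations.
-/

set_option autoImplicit false

namespace Cfsg.Agent.Lib.Helper47.Stu

open Cfsg.Agent.Lib.Helper36.Stu
open scoped ComplexConjugate

universe u

/-- An idempotent endomorphism of trace one satisfies `E A E = tr(A E) E`. -/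
theorem rank_one_of_idem {V : Type*} [AddCommGroup V] [Module ℂ V] [FiniteDimensional ℂ V]
    (E : Module.End ℂ V) (hE : E * E = E) (htr : LinearMap.trace ℂ V E = 1)
    (A : Module.End ℂ V) :
    E * A * E = (LinearMap.trace ℂ V (A * E)) • E := by
  have hidem : IsIdempotentElem E := hE
  have hproj := (LinearMap.isProj_range_iff_isIdempotentElem E).2 hidem
  have h1 := hproj.trace
  rw [htr] at h1
  have h2 : Module.finrank ℂ (LinearMap.range E) = 1 := by exact_mod_cast h1.symm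
  obtain ⟨v, -, hv⟩ := finrank_eq_one_iff'.1 h2
  obtain ⟨a, ha⟩ := hv ⟨E (A v), LinearMap.mem_range_self E _⟩
  have ha' : a • (v : V) = E (A (v : V)) := congrArg Subtype.val ha
  have key : E * A * E = a • E := by
    refine LinearMap.ext fun w => ?_
    obtain ⟨b, hb⟩ := hv ⟨E w, LinearMap.mem_range_self E _⟩
    have hb' : b • (v : V) = E w := congrArg Subtype.val hb
    show E (A (E w)) = a • E w
    rw [← hb', map_smul, map_smul, ← ha', smul_comm]
  have htr2 : LinearMap.trace ℂ V (E * A * E) = LinearMap.trace ℂ V (A * E) := by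
    rw [mul_assoc, LinearMap.trace_mul_comm, mul_assoc, hE]
  rw [key, map_smul, htr, smul_eq_mul, mul_one] at htr2
  rw [key, htr2]

/-- **[SPH]** -/
theorem pkgSph : PkgSph.{u} := by
  intro G _ _ U χ hχ hsum
  classical
  obtain ⟨n, ρ, -, rfl⟩ := hχ
  have : Fintype U := Fintype.ofFinite U
  rw [finsum_eq_sum_of_fintype] at hsum
  obtain ⟨c, hc⟩ : ∃ c : ℂ, c = (Nat.card U : ℂ) := ⟨_, rfl⟩
  rw [← hc] at hsum
  have hc0 : c ≠ 0 := by
    rw [hc]
    exact_mod_cast (Nat.card_pos (α := U)).ne'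
  obtain ⟨S, hS⟩ : ∃ S : Module.End ℂ (Fin n → ℂ), S = ∑ u : U, ρ (u : G) := ⟨_, rfl⟩
  obtain ⟨E, hE⟩ : ∃ E : Module.End ℂ (Fin n → ℂ), E = c⁻¹ • S := ⟨_, rfl⟩
  have hSl : ∀ u0 ∈ U, ρ u0 * S = S := by
    intro u0 hu0
    rw [hS, Finset.mul_sum]
    simp_rw [← map_mul]
    exact Fintype.sum_equiv (Equiv.mulLeft (⟨u0, hu0⟩ : U)) _ _ (fun u => rfl)
  have hSr : ∀ u0 ∈ U, S * ρ u0 = S := by
    intro u0 hu0
    rw [hS, Finset.sum_mul]
    simp_rw [← map_mul]
    exact Fintype.sum_equiv (Equiv.mulRight (⟨u0, hu0⟩ : U)) _ _ (fun u => rfl)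
  have hEl : ∀ u0 ∈ U, ρ u0 * E = E := by
    intro u0 hu0
    rw [hE, mul_smul_comm, hSl u0 hu0]
  have hEr : ∀ u0 ∈ U, E * ρ u0 = E := by
    intro u0 hu0
    rw [hE, smul_mul_assoc, hSr u0 hu0]
  have hS_eq : S = c • E := by
    rw [hE, smul_smul, mul_inv_cancel₀ hc0, one_smul]
  have hSE : S * E = c • E := by
    have h1 : S * E = ∑ u : U, ρ (u : G) * E := by
      rw [hS, Finset.sum_mul]
    rw [h1, Finset.sum_congr rfl (fun u _ => hEl u.1 u.2), Finset.sum_const, Finset.card_univ,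
      hc, Nat.card_eq_fintype_card, Nat.cast_smul_eq_nsmul]
  have hEE : E * E = E := by
    have h1 : E * E = c⁻¹ • (S * E) := by
      rw [← smul_mul_assoc, ← hE]
    rw [h1, hSE, smul_smul, inv_mul_cancel₀ hc0, one_smul]
  have htrE : LinearMap.trace ℂ (Fin n → ℂ) E = 1 := by
    have h1 : ∑ u : U, LinearMap.trace ℂ (Fin n → ℂ) (ρ (u : G)) = c := hsum
    rw [hE, map_smul, hS, map_sum, h1, smul_eq_mul, inv_mul_cancel₀ hc0]
  have hsph : ∀ g, sph U ρ.character g = LinearMap.trace ℂ (Fin n → ℂ) (ρ g * E) := by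
    intro g
    have h1 : LinearMap.trace ℂ (Fin n → ℂ) (ρ g * E)
        = c⁻¹ * ∑ u : U, ρ.character (g * (u : G)) := by
      rw [hE, mul_smul_comm, map_smul, smul_eq_mul, hS, Finset.mul_sum, map_sum]
      congr 1
      apply Finset.sum_congr rfl
      intro u _
      rw [Representation.character, map_mul ρ]
    rw [h1, sph, finsum_eq_sum_of_fintype, hc]
  have hrk := rank_one_of_idem E hEE htrE
  refine ⟨?_, ?_, ?_, ?_, ?_⟩
  · rw [hsph, map_one, one_mul, htrE]
  · intro g u hu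
    rw [hsph, hsph, map_mul ρ, mul_assoc, LinearMap.trace_mul_comm, mul_assoc, hEr u hu]
  · intro g u hu
    rw [hsph, hsph, map_mul ρ, mul_assoc, hEl u hu]
  · intro g
    rw [sph, sph, finsum_eq_sum_of_fintype, finsum_eq_sum_of_fintype, map_mul, map_inv₀,
      Complex.conj_natCast, map_sum]
    congr 1
    rw [← Equiv.sum_comp (Equiv.inv U) (fun u => conj (ρ.character (g * (u : G))))]
    apply Finset.sum_congr rfl
    intro u _
    have h1 : g⁻¹ * (u : G) = ((u : G)⁻¹ * g)⁻¹ := by group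
    have h2 : ρ.character ((u : G)⁻¹ * g) = ρ.character (g * (u : G)⁻¹) := by
      have h3 := ρ.char_conj (g * (u : G)⁻¹) (u : G)⁻¹
      rw [← h3]
      congr 1
      group
    rw [h1, Cfsg.Agent.Lib.Helper3.character_inv, h2]
    rfl
  · intro g g'
    rw [finsum_eq_sum_of_fintype]
    have h1 : ∀ u : U, sph U ρ.character (g * (u : G) * g')
        = LinearMap.trace ℂ (Fin n → ℂ) (ρ g * ρ (u : G) * ρ g' * E) := by
      intro u
      rw [hsph, map_mul ρ, map_mul ρ]
    rw [Finset.sum_congr rfl (fun u _ => h1 u), ← map_sum]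
    have h2 : ∑ u : U, ρ g * ρ (u : G) * ρ g' * E = ρ g * S * ρ g' * E := by
      rw [hS, Finset.mul_sum, Finset.sum_mul, Finset.sum_mul]
    have h3 : ρ g * (c • E) * ρ g' * E
        = (c * LinearMap.trace ℂ (Fin n → ℂ) (ρ g' * E)) • (ρ g * E) := by
      rw [mul_smul_comm, smul_mul_assoc, smul_mul_assoc, mul_assoc, mul_assoc, ← mul_assoc E,
        hrk, mul_smul_comm, smul_smul]
    rw [h2, hS_eq, h3, map_smul, smul_eq_mul, hsph, hsph, ← hc]
    ring

end Cfsg.Agent.Lib.Helper47.Stu
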